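import Mathlib
import Cfsg.Agent.Lib.Helper69.BG40.Defs

/-!
# S1440 project, package PKI1 (helper80)

Type `P` (`K ≠ 1`): if `⟨w⟩ ≤ M_σ` of prime order `q` is normalized by `K` and `w` is not
centralized by `K`, then `k ^ (q - 1) = 1` for all `k ∈ K`.
-/

set_option autoImplicit false

namespace Cfsg.Agent.Lib.Helper80.BG40

open Cfsg

universe u

/-- If `u` normalizes `⟨w⟩` (`w` of prime order `q`), then `u ^ (q - 1)` centralizes `w`. -/
theorem pow_pred_comm_of_conj_mem_zpowers {G : Type u} [Group G] (q : ℕ) (hq : q.Prime) (w u : G)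
    (hw : orderOf w = q) (hu : u * w * u⁻¹ ∈ Subgroup.zpowers w) :
    u ^ (q - 1) * w = w * u ^ (q - 1) := by
  obtain ⟨z, hz⟩ := Subgroup.mem_zpowers_iff.mp hu
  have hq0 : (0 : ℤ) < (q : ℤ) := by exact_mod_cast hq.pos
  -- a natural exponent
  obtain ⟨j, hj⟩ : ∃ j : ℕ, w ^ j = u * w * u⁻¹ := by
    refine ⟨(z % (q : ℤ)).toNat, ?_⟩
    have h1 : w ^ z = w ^ (z % (orderOf w : ℤ)) := (zpow_mod_orderOf w z).symm
    rw [hw] at h1
    have h2 : ((z % (q : ℤ)).toNat : ℤ) = z % (q : ℤ) :=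
      Int.toNat_of_nonneg (Int.emod_nonneg z hq0.ne')
    rw [← hz, h1, ← zpow_natCast, h2]
  -- iterate
  have hit : ∀ n : ℕ, u ^ n * w * (u ^ n)⁻¹ = w ^ (j ^ n) := by
    intro n
    induction n with
    | zero => simp
    | succ n ih =>
      have h3 : u ^ (n + 1) * w * (u ^ (n + 1))⁻¹ = u * (u ^ n * w * (u ^ n)⁻¹) * u⁻¹ := by
        rw [pow_succ']; group
      rw [h3, ih]
      have h4 : u * w ^ (j ^ n) * u⁻¹ = (u * w * u⁻¹) ^ (j ^ n) := by
        rw [conj_pow]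
      rw [h4, ← hj, ← pow_mul, pow_succ']
  have hw1 : w ≠ 1 := by
    intro h
    rw [h, orderOf_one] at hw
    exact hq.one_lt.ne hw
  have hqj : ¬ q ∣ j := by
    intro hd
    have h5 : w ^ j = 1 := by
      rw [← hw] at hd
      exact orderOf_dvd_iff_pow_eq_one.mp hd
    rw [h5] at hj
    apply hw1
    have h6 : w = u⁻¹ * (u * w * u⁻¹) * u := by group
    rw [h6, ← hj]; group
  have hcop : Nat.Coprime j q := ((Nat.Prime.coprime_iff_not_dvd hq).mpr hqj).symm
  have hfer : j ^ (q - 1) ≡ 1 [MOD q] := by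
    have := Nat.ModEq.pow_totient hcop
    rwa [Nat.totient_prime hq] at this
  have h7 : w ^ (j ^ (q - 1)) = w := by
    have h8 : w ^ (j ^ (q - 1)) = w ^ (j ^ (q - 1) % orderOf w) := (pow_mod_orderOf w _).symm
    rw [h8, hw, hfer, Nat.mod_eq_of_lt hq.one_lt, pow_one]
  have h9 := hit (q - 1)
  rw [h7] at h9
  calc u ^ (q - 1) * w = (u ^ (q - 1) * w * (u ^ (q - 1))⁻¹) * u ^ (q - 1) := by group
    _ = w * u ^ (q - 1) := by rw [h9]

/-- Package PKI1 of the S1440 project. -/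
theorem pkI1 : Cfsg.Agent.Lib.Helper69.BG40.PKI1.{u} := by
  intro G _ _ hG h1430 M hM K U hKU hK1 q hq w hwσ hwo hwn hwK k hk
  by_contra hne
  have hkq : k ^ (q - 1) ∈ K := K.pow_mem hk _
  have h1 := (h1430 M hM K hKU.hall hK1).1 (k ^ (q - 1)) hkq hne
  have hconj : k * w * k⁻¹ ∈ Subgroup.zpowers w := by
    have := (Subgroup.mem_normalizer_iff.mp (hwn hk) w).mp (Subgroup.mem_zpowers w)
    exact this
  have hc := pow_pred_comm_of_conj_mem_zpowers q hq w k hwo hconj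
  have hmem : w ∈ sigmaCore M ⊓ Subgroup.centralizer ({k ^ (q - 1)} : Set G) := by
    refine Subgroup.mem_inf.mpr ⟨hwσ, ?_⟩
    rw [Subgroup.mem_centralizer_iff]
    intro y hy
    rw [Set.mem_singleton_iff] at hy
    rw [hy]
    exact hc
  rw [h1] at hmem
  exact hwK hmem.2

end Cfsg.Agent.Lib.Helper80.BG40
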