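import Mathlib
import Cfsg.Agent.Lib.Helper69.BG40.Defs
import Cfsg.Agent.Lib.Helper80.BG40.PKI1

/-!
# S1440 project, package PKH (helper80)

Type `F` (`K = 1`): the exponent of `M / M_F` divides `q - 1` whenever `M_σ` has an element `w` of
prime order `q` with `⟨w⟩` normal in `M`.
-/

set_option autoImplicit false

namespace Cfsg.Agent.Lib.Helper80.BG40

open Cfsg

universe u

/-- Package PKH of the S1440 project. -/
theorem pkH : Cfsg.Agent.Lib.Helper69.BG40.PKH.{u} := by
  intro G _ _ hG h1360 M hM K U hKU hK hHσ q hq w hwσ hwo hwn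
  obtain ⟨U₀, hU₀U, hexp, hfree⟩ := h1360 M hM K U hKU
  have hUM : U ≤ M := hKU.compl.1
  have hw1 : w ≠ 1 := by
    intro h
    rw [h, orderOf_one] at hwo
    exact hq.one_lt.ne hwo
  -- exponent U₀ ∣ q - 1
  have h1 : Monoid.exponent ↥U₀ ∣ q - 1 := by
    apply Monoid.exponent_dvd_of_forall_pow_eq_one
    rintro ⟨u, hu⟩
    have huM : u ∈ M := hUM (hU₀U hu)
    have hconj : u * w * u⁻¹ ∈ Subgroup.zpowers w :=
      (Subgroup.mem_normalizer_iff.mp (hwn huM) w).mp (Subgroup.mem_zpowers w)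
    have hc := pow_pred_comm_of_conj_mem_zpowers q hq w u hwo hconj
    have h2 := hfree (u ^ (q - 1)) (U₀.pow_mem hu _) ⟨M.pow_mem huM _, w, hwσ, hw1, hc⟩
    apply Subtype.ext
    simpa using h2
  rw [hexp] at h1
  refine dvd_trans ?_ h1
  -- exponent (M ⧸ fittingHall M) ∣ exponent U
  apply Monoid.exponent_dvd_of_forall_pow_eq_one
  intro x
  induction x using QuotientGroup.induction_on with
  | H m =>
    obtain ⟨a, ha, b, hb, hab⟩ := hKU.compl.2.2.2 (m : G) m.2
    have hbσ : b ∈ sigmaCore M := by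
      rw [hK, bot_sup_eq] at hb
      exact hb
    rw [← hHσ] at hbσ
    obtain ⟨b', hb', hb'b⟩ := Subgroup.mem_map.mp hbσ
    have hm : m = (⟨a, hUM ha⟩ : ↥M) * b' := by
      apply Subtype.ext
      simp only [Subgroup.coe_mul]
      rw [hab]
      congr 1
      exact hb'b.symm
    have h3 : (QuotientGroup.mk m : ↥M ⧸ fittingHall ↥M)
        = QuotientGroup.mk (⟨a, hUM ha⟩ : ↥M) := by
      rw [hm]
      rw [QuotientGroup.mk_mul]
      have : (QuotientGroup.mk b' : ↥M ⧸ fittingHall ↥M) = 1 :=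
        (QuotientGroup.eq_one_iff b').mpr hb'
      rw [this, mul_one]
    rw [h3, ← QuotientGroup.mk_pow]
    have h4 : (⟨a, hUM ha⟩ : ↥M) ^ Monoid.exponent ↥U = 1 := by
      apply Subtype.ext
      have h5 := Monoid.pow_exponent_eq_one (⟨a, ha⟩ : ↥U)
      have h6 := congrArg Subtype.val h5
      simpa using h6
    rw [h4]
    rfl

end Cfsg.Agent.Lib.Helper80.BG40
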